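import Cfsg.Agent.Lib.Helper9.AschU.Defs
import Cfsg.Agent.Lib.Helper55.Asch.FormCore

set_option autoImplicit false
set_option linter.unusedSectionVars false

/-! # Gram matrix API for the standard unitary form -/

namespace Cfsg.Agent.Lib.Helper11.AschU

open Cfsg Cfsg.Geo Matrix Cfsg.Agent.Lib.Helper13 Cfsg.Agent.Lib.Helper13.Asch
  Cfsg.Agent.Lib.Helper5.SUAsch Cfsg.Agent.Lib.Helper9.AschU Cfsg.Agent.Lib.Helper55.Asch
open scoped Kronecker MatrixGroups

variable {F : Type*} [Field F] [Fintype F] {n q : ℕ}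

theorem frobQ_frobQ (hF : Fintype.card F = q ^ 2) (x : F) : frobQ hF (frobQ hF x) = x :=
  pow_q_pow_q hF x

/-- the involutory automorphism as a ring equivalence -/
noncomputable def frobE (hF : Fintype.card F = q ^ 2) : F ≃+* F :=
  RingEquiv.ofBijective (frobQ hF) (Function.Involutive.bijective (frobQ_frobQ hF))

theorem frobE_coe (hF : Fintype.card F = q ^ 2) : ((frobE hF : F ≃+* F) : F →+* F) = frobQ hF :=
  RingHom.ext fun _ => rfl

theorem map_map_frobQ (hF : Fintype.card F = q ^ 2) {κ κ' : Type*} (M : Matrix κ κ' F) :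
    (M.map (frobQ hF)).map (frobQ hF) = M := by
  ext i j
  exact frobQ_frobQ hF _

theorem formOfGram_eq_gform (hF : Fintype.card F = q ^ 2) {κ : Type} [Fintype κ] [DecidableEq κ]
    (G : Matrix κ κ F) (x y : κ → F) :
    formOfGram (fun x : F => x ^ q) G x y = gform (frobQ hF) G x y := by
  simp only [formOfGram, gform, dotProduct, Matrix.mulVec, frobQ_apply, Finset.mul_sum, mul_assoc]

theorem gramMatrix_gform (σ : F →+* F) {κ : Type} [Fintype κ] [DecidableEq κ] (G : Matrix κ κ F) :
    gramMatrix (gform σ G) = G := by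
  ext i j
  exact gform_single σ G i j

theorem isUnitaryFormPow_gform (hF : Fintype.card F = q ^ 2) {κ : Type} [Fintype κ] [DecidableEq κ]
    (G : Matrix κ κ F) (hG : IsUnit G.det) (hh : (G.map (frobQ hF))ᵀ = G) :
    IsUnitaryFormPow q (gform (frobQ hF) G) where
  add_left := gform_add_left _ G
  smul_left := fun c x v => gform_smul_left _ G c x v
  herm := fun v w => by
    have := gform_herm (frobQ hF) (frobQ_frobQ hF) G v w
    rw [hh] at this
    exact this
  nondegenerate := by
    have := nondeg_of_isUnit_det (frobE hF) G hG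
    rwa [frobE_coe] at this

theorem hermForm_eq_gform (hF : Fintype.card F = q ^ 2) (u v : Fin n → F) :
    hermForm n F q u v = gform (frobQ hF) 1 u v := by
  simp only [gform, Matrix.one_mulVec, dotProduct, frobQ_apply, hermForm]

theorem gform_comp_equiv (σ : F →+* F) {ι κ : Type} [Fintype ι] [DecidableEq ι] [Fintype κ]
    [DecidableEq κ] (e : ι ≃ κ) (K : Matrix ι ι F) (x y : κ → F) :
    gform σ K (x ∘ e) (y ∘ e) = gform σ (Matrix.reindex e e K) x y := by
  simp only [gform, dotProduct, Matrix.mulVec, Matrix.reindex_apply, Matrix.submatrix_apply,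
    Function.comp_apply]
  refine Fintype.sum_equiv e _ _ fun i => ?_
  congr 1
  refine Fintype.sum_equiv e _ _ fun j => ?_
  simp

theorem hermForm_frame (hF : Fintype.card F = q ^ 2) {κ : Type} [Fintype κ] [DecidableEq κ]
    (e : Fin n ≃ κ) (P : Matrix (Fin n) (Fin n) F) (x y : κ → F) :
    hermForm n F q (P *ᵥ (x ∘ e)) (P *ᵥ (y ∘ e)) =
      gform (frobQ hF) (Matrix.reindex e e (Pᵀ * P.map (frobQ hF))) x y := by
  rw [hermForm_eq_gform hF, gform_mulVec, mul_one, gform_comp_equiv]

theorem adj_eq (hF : Fintype.card F = q ^ 2) {ι : Type} (M : Matrix ι ι F) :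
    adj q M = (M.map (frobQ hF))ᵀ := by
  ext i j
  rfl

end Cfsg.Agent.Lib.Helper11.AschU
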