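import Cfsg.Agent.Lib.Helper11.AschU.FormLib
import Cfsg.Agent.Lib.Helper35.Asch.L6

set_option autoImplicit false
set_option linter.unusedSectionVars false

/-! # Piece U4 of the unitary Aschbacher campaign -/

namespace Cfsg.Agent.Lib.Helper11.AschU

open Cfsg Cfsg.Geo Matrix Cfsg.Agent.Lib.Helper13 Cfsg.Agent.Lib.Helper13.Asch
  Cfsg.Agent.Lib.Helper5.SUAsch Cfsg.Agent.Lib.Helper9.AschU Cfsg.Agent.Lib.Helper55.Asch
open scoped Kronecker MatrixGroups

variable {F : Type*} [Field F] [Fintype F] {n q : ℕ}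

/-- a hermitian Kronecker product is a Kronecker product of hermitian matrices -/
theorem kron_herm (hF : Fintype.card F = q ^ 2) {a b : ℕ} (G₁ : Matrix (Fin a) (Fin a) F)
    (G₂ : Matrix (Fin b) (Fin b) F) (h1 : G₁ ≠ 0) (h2 : G₂ ≠ 0)
    (h : ((G₁ ⊗ₖ G₂).map (frobQ hF))ᵀ = G₁ ⊗ₖ G₂) :
    ∃ k : F, k ≠ 0 ∧ ((k • G₁).map (frobQ hF))ᵀ = k • G₁ ∧
      ((k⁻¹ • G₂).map (frobQ hF))ᵀ = k⁻¹ • G₂ := by
  set σ := frobQ hF with hσ
  have hσσ : ∀ x, σ (σ x) = x := frobQ_frobQ hF
  have key : ∀ i j k l, σ (G₁ j i) * σ (G₂ l k) = G₁ i j * G₂ k l := by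
    intro i j k l
    have := congrFun (congrFun h (i, k)) (j, l)
    simpa [Matrix.kroneckerMap_apply] using this
  obtain ⟨i, j, hij⟩ : ∃ i j, G₁ i j ≠ 0 := by
    by_contra hcon
    push Not at hcon
    exact h1 (by ext i j; exact hcon i j)
  obtain ⟨k, l, hkl⟩ : ∃ k l, G₂ k l ≠ 0 := by
    by_contra hcon
    push Not at hcon
    exact h2 (by ext i j; exact hcon i j)
  have hne : σ (G₁ j i) * σ (G₂ l k) ≠ 0 := by
    rw [key]; exact mul_ne_zero hij hkl
  have hlk : σ (G₂ l k) ≠ 0 := right_ne_zero_of_mul hne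
  set lam : F := G₂ k l / σ (G₂ l k) with hlam
  have hG1 : ∀ i' j', σ (G₁ j' i') = lam * G₁ i' j' := by
    intro i' j'
    have := key i' j' k l
    rw [hlam]
    field_simp
    linear_combination this
  have hll : σ lam * lam = 1 := by
    have e1 := hG1 j i
    have e2 : G₁ i j = σ (lam * G₁ j i) := by rw [← e1, hσσ]
    rw [map_mul, hG1 i j] at e2
    have : (σ lam * lam - 1) * G₁ i j = 0 := by linear_combination -e2
    rcases mul_eq_zero.1 this with h | h
    · linear_combination h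
    · exact absurd h hij
  obtain ⟨c, hc⟩ : ∃ c : F, c + σ c * lam ≠ 0 := by
    by_contra hcon
    push Not at hcon
    have h1' := hcon 1
    rw [map_one, one_mul] at h1'
    have hl : lam = -1 := by linear_combination h1'
    apply frobQ_ne_id hF
    ext x
    have := hcon x
    rw [hl] at this
    rw [RingHom.id_apply]
    linear_combination -this
  set κ : F := c + σ c * lam with hκ
  have hκσ : σ κ * lam = κ := by
    rw [hκ, map_add, map_mul, hσσ]
    linear_combination c * hll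
  have hG1' : ∀ i' j', σ (κ * G₁ j' i') = κ * G₁ i' j' := by
    intro i' j'
    rw [map_mul, hG1]
    linear_combination G₁ i' j' * hκσ
  refine ⟨κ, hc, ?_, ?_⟩
  · ext i' j'
    simpa using hG1' i' j'
  · ext k' l'
    have e1 := key i j k' l'
    have e2 := hG1' i j
    have hσκ : σ κ ≠ 0 := by
      intro h0
      rw [h0, zero_mul] at hκσ
      exact hc hκσ.symm
    have e3 : σ (G₁ j i) = σ κ⁻¹ * (κ * G₁ i j) := by
      rw [← e2, map_mul, map_inv₀]
      field_simp
    rw [e3] at e1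
    have e4 : G₁ i j * (κ * (σ κ⁻¹ * σ (G₂ l' k')) - G₂ k' l') = 0 := by linear_combination e1
    rcases mul_eq_zero.1 e4 with h | h
    · exact absurd h hij
    · simp only [Matrix.transpose_apply, Matrix.map_apply, Matrix.smul_apply, smul_eq_mul, map_mul]
      have : σ κ⁻¹ * σ (G₂ l' k') = κ⁻¹ * (κ * (σ κ⁻¹ * σ (G₂ l' k'))) := by
        field_simp
      rw [this, sub_eq_zero.1 h]

/-- U4 -/
theorem tensor_form (hF : Fintype.card F = q ^ 2) {a b : ℕ} (ha : 0 < a) (hb : 0 < b)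
    (e : Fin n ≃ Fin a × Fin b) (P : GL (Fin n) F)
    (hstar : ∀ X : Matrix (Fin a) (Fin a) F, ∃ Y : Matrix (Fin a) (Fin a) F,
      adj q (embL e P X) = embL e P Y) :
    ∃ (f₁ : (Fin a → F) → (Fin a → F) → F) (f₂ : (Fin b → F) → (Fin b → F) → F),
      IsUnitaryFormPow q f₁ ∧ IsUnitaryFormPow q f₂ ∧
      IsTensorFormStructure (fun x : F => x ^ q) (hermForm n F q) f₁ f₂ e P := by
  classical
  set σ := frobQ hF with hσ
  set Pm : Matrix (Fin n) (Fin n) F := (P : Matrix (Fin n) (Fin n) F) with hPm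
  set Pi : Matrix (Fin n) (Fin n) F := ((P⁻¹ : GL (Fin n) F) : Matrix (Fin n) (Fin n) F) with hPi
  have hPiPm : Pi * Pm = 1 := by
    rw [hPi, hPm, ← Units.val_mul, inv_mul_cancel, Units.val_one]
  set M0 : Matrix (Fin n) (Fin n) F := Pmᵀ * Pm.map σ with hM0
  set J : Matrix (Fin a × Fin b) (Fin a × Fin b) F := Matrix.reindex e e M0 with hJ
  have hJdet : IsUnit J.det := by
    rw [hJ, Matrix.det_reindex_self, hM0, Matrix.det_mul, Matrix.det_transpose]
    have h1 : IsUnit Pm.det := (Matrix.isUnit_iff_isUnit_det _).1 P.isUnit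
    have h2 : (Pm.map σ).det = σ Pm.det := by
      rw [RingHom.map_det]; rfl
    rw [h2]
    exact h1.mul (h1.map σ)
  have hJherm : (J.map σ)ᵀ = J := by
    have h0 : (M0.map σ)ᵀ = M0 := by
      rw [hM0, Matrix.map_mul, map_map_frobQ hF, Matrix.transpose_mul, ← Matrix.transpose_map,
        Matrix.transpose_transpose]
    rw [hJ]
    conv_rhs => rw [← h0]
    ext p r
    rfl
  -- translation of `hstar`
  have hXY : ∀ X : Matrix (Fin a) (Fin a) F, ∃ Y : Matrix (Fin a) (Fin a) F,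
      J * (X ⊗ₖ (1 : Matrix (Fin b) (Fin b) F)) = (Y ⊗ₖ (1 : Matrix (Fin b) (Fin b) F)) * J := by
    intro X
    obtain ⟨Y, hY⟩ := hstar (X.map σ)
    refine ⟨Yᵀ, ?_⟩
    rw [adj_eq hF] at hY
    have hY' := congrArg Matrix.transpose hY
    rw [Matrix.transpose_transpose] at hY'
    unfold embL at hY'
    set EX : Matrix (Fin n) (Fin n) F :=
      Matrix.reindex e.symm e.symm (X.map σ ⊗ₖ (1 : Matrix (Fin b) (Fin b) F)) with hEX
    set EY : Matrix (Fin n) (Fin n) F :=
      Matrix.reindex e.symm e.symm (Y ⊗ₖ (1 : Matrix (Fin b) (Fin b) F)) with hEY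
    rw [Matrix.map_mul, Matrix.map_mul, Matrix.transpose_mul, Matrix.transpose_mul] at hY'
    have h1 : Pi.map σ * Pm.map σ = 1 := by
      rw [← Matrix.map_mul, hPiPm]
      ext i j
      simp [Matrix.one_apply, apply_ite]
    have h2 : Pmᵀ * Piᵀ = 1 := by
      rw [← Matrix.transpose_mul, hPiPm, Matrix.transpose_one]
    have h3 : M0 * EX.map σ = EYᵀ * M0 := by
      calc M0 * EX.map σ = Pmᵀ * (Pm.map σ * EX.map σ * Pi.map σ) * Pm.map σ := by
            rw [hM0]
            simp only [mul_assoc]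
            rw [h1, mul_one]
        _ = Pmᵀ * (Piᵀ * (EYᵀ * Pmᵀ)) * Pm.map σ := by rw [hY']
        _ = EYᵀ * M0 := by
            rw [hM0]
            simp only [← mul_assoc]
            rw [h2, one_mul]
    have h4 := congrArg (Matrix.reindex e e) h3
    simp only [Matrix.reindex_apply] at h4
    have h4a : (M0 * EX.map σ).submatrix e.symm e.symm =
        M0.submatrix e.symm e.symm * (EX.map σ).submatrix e.symm e.symm :=
      (Matrix.submatrix_mul_equiv M0 (EX.map σ) e.symm e.symm e.symm).symm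
    have h4b : (EYᵀ * M0).submatrix e.symm e.symm =
        (EYᵀ).submatrix e.symm e.symm * M0.submatrix e.symm e.symm :=
      (Matrix.submatrix_mul_equiv EYᵀ M0 e.symm e.symm e.symm).symm
    rw [h4a, h4b] at h4
    have h5 : (EX.map σ).submatrix e.symm e.symm = X ⊗ₖ (1 : Matrix (Fin b) (Fin b) F) := by
      ext ⟨i, k⟩ ⟨j, l⟩
      simp only [hEX, Matrix.reindex_apply, Matrix.submatrix_apply, Matrix.map_apply,
        Matrix.kroneckerMap_apply, Equiv.symm_symm, Equiv.apply_symm_apply, map_mul]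
      rw [frobQ_frobQ hF]
      by_cases hkl : k = l
      · subst hkl; simp
      · simp [hkl]
    have h6 : (EYᵀ).submatrix e.symm e.symm = Yᵀ ⊗ₖ (1 : Matrix (Fin b) (Fin b) F) := by
      ext ⟨i, k⟩ ⟨j, l⟩
      simp only [hEY, Matrix.reindex_apply, Matrix.submatrix_apply, Matrix.transpose_apply,
        Matrix.kroneckerMap_apply, Equiv.symm_symm, Equiv.apply_symm_apply, Matrix.one_apply,
        eq_comm]
    rw [h5, h6] at h4
    exact h4
  have hi1 : J⁻¹ * J = 1 := Matrix.nonsing_inv_mul _ hJdet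
  have hi2 : J * J⁻¹ = 1 := Matrix.mul_nonsing_inv _ hJdet
  obtain ⟨g, c, hgc⟩ := Cfsg.Agent.Lib.Helper35.Asch.core (⟨0, ha⟩ : Fin a) (⟨0, hb⟩ : Fin b)
    J J⁻¹ hi2 hi1 (by
      intro X
      obtain ⟨Y, hY⟩ := hXY X
      exact ⟨Y, by rw [hY, mul_assoc, hi2, mul_one]⟩)
  have : Nonempty (Fin a) := ⟨⟨0, ha⟩⟩
  have : Nonempty (Fin b) := ⟨⟨0, hb⟩⟩
  have hd1 : IsUnit (g : Matrix (Fin a) (Fin a) F).det := (Matrix.isUnit_iff_isUnit_det _).1 g.isUnit
  have hd2 : IsUnit (c : Matrix (Fin b) (Fin b) F).det := (Matrix.isUnit_iff_isUnit_det _).1 c.isUnit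
  obtain ⟨k, hk, hk1, hk2⟩ := kron_herm hF (g : Matrix (Fin a) (Fin a) F)
    (c : Matrix (Fin b) (Fin b) F)
    (by
      intro h0
      rw [h0, Matrix.det_zero] at hd1
      exact not_isUnit_zero hd1)
    (by
      intro h0
      rw [h0, Matrix.det_zero] at hd2
      exact not_isUnit_zero hd2)
    (by rw [← hgc]; exact hJherm)
  have hJk : (k • (g : Matrix (Fin a) (Fin a) F)) ⊗ₖ (k⁻¹ • (c : Matrix (Fin b) (Fin b) F)) = J := by
    rw [Matrix.smul_kronecker, Matrix.kronecker_smul, smul_smul, mul_inv_cancel₀ hk, one_smul, hgc]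
  refine ⟨gform σ (k • (g : Matrix (Fin a) (Fin a) F)), gform σ (k⁻¹ • (c : Matrix (Fin b) (Fin b) F)),
    isUnitaryFormPow_gform hF _ ?_ hk1, isUnitaryFormPow_gform hF _ ?_ hk2, 1, one_ne_zero, ?_⟩
  · rw [Matrix.det_smul]
    exact (IsUnit.pow _ (isUnit_iff_ne_zero.2 hk)).mul hd1
  · rw [Matrix.det_smul]
    exact (IsUnit.pow _ (isUnit_iff_ne_zero.2 (inv_ne_zero hk))).mul hd2
  · intro x y
    rw [gramMatrix_gform, gramMatrix_gform, hJk, one_mul, formOfGram_eq_gform hF,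
      hermForm_frame hF]

end Cfsg.Agent.Lib.Helper11.AschU
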