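import Cfsg.Agent.Lib.Helper9.AschU.Defs

set_option autoImplicit false

namespace Cfsg.Agent.Lib.Helper11.AschU

open Cfsg Cfsg.Geo Matrix Cfsg.Agent.Lib.Helper13 Cfsg.Agent.Lib.Helper13.Asch
  Cfsg.Agent.Lib.Helper5.SUAsch Cfsg.Agent.Lib.Helper9.AschU
open scoped Kronecker MatrixGroups

variable {F : Type*} [Field F] {n q : ℕ}

/-- U4s -/
theorem tensor_form_swap {a b : ℕ} (e : Fin n ≃ Fin a × Fin b) (P : GL (Fin n) F)
    (f₁ : (Fin a → F) → (Fin a → F) → F) (f₂ : (Fin b → F) → (Fin b → F) → F)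
    (h : IsTensorFormStructure (fun x : F => x ^ q) (hermForm n F q) f₁ f₂ e P) :
    IsTensorFormStructure (fun x : F => x ^ q) (hermForm n F q) f₂ f₁
      (e.trans (Equiv.prodComm _ _)) P := by
  obtain ⟨c, hc, h⟩ := h
  refine ⟨c, hc, ?_⟩
  intro x y
  have h1 := h (x ∘ Equiv.prodComm _ _) (y ∘ Equiv.prodComm _ _)
  have e1 : x ∘ (e.trans (Equiv.prodComm _ _)) = (x ∘ Equiv.prodComm _ _) ∘ e := rfl
  have e2 : y ∘ (e.trans (Equiv.prodComm _ _)) = (y ∘ Equiv.prodComm _ _) ∘ e := rfl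
  rw [e1, e2, h1]
  congr 1
  unfold formOfGram
  rw [← Equiv.sum_comp (Equiv.prodComm (Fin a) (Fin b))]
  refine Finset.sum_congr rfl fun p _ => ?_
  rw [← Equiv.sum_comp (Equiv.prodComm (Fin a) (Fin b))]
  refine Finset.sum_congr rfl fun q _ => ?_
  simp only [Function.comp_apply, Matrix.kroneckerMap_apply, Equiv.prodComm_apply, Prod.fst_swap,
    Prod.snd_swap]
  ring

end Cfsg.Agent.Lib.Helper11.AschU
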