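import Cfsg.Agent.Lib.Helper11.AschU.FormLib
import Cfsg.Agent.Lib.Helper35.Asch.L7a
import Cfsg.Agent.Lib.Helper70.AschU.UO

set_option autoImplicit false
set_option linter.unusedSectionVars false

/-! # Piece U7s of the unitary Aschbacher campaign: the square case -/

namespace Cfsg.Agent.Lib.Helper11.AschU

open Cfsg Cfsg.Geo Matrix Cfsg.Agent.Lib.Helper13 Cfsg.Agent.Lib.Helper13.Asch
  Cfsg.Agent.Lib.Helper5.SUAsch Cfsg.Agent.Lib.Helper9.AschU Cfsg.Agent.Lib.Helper55.Asch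
  Cfsg.Agent.Lib.Helper35.Asch
open scoped Kronecker MatrixGroups

variable {F : Type*} [Field F] [Fintype F] {n q : ℕ}

theorem tensor_le_wreath' {ι : Type} [Fintype ι] [DecidableEq ι] {m : ℕ} (e : ι ≃ Fin m × Fin m)
    (P : GL ι F) :
    tensorProductSubgroup m m e P ≤
      tensorWreathSubgroup m 2 (e.trans (finTwoArrowEquiv (Fin m)).symm) P := by
  intro h hh
  rw [mem_tensor_iff] at hh
  obtain ⟨x, y, hxy⟩ := hh
  refine ⟨_, ⟨glReindex (finTwoArrowEquiv (Fin m)).symm (kronGL x y), ?_, rfl⟩, ?_⟩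
  · apply Subgroup.subset_closure
    left
    refine ⟨![x, y], ?_⟩
    intro u v
    rw [Fin.prod_univ_two]
    rfl
  · apply Units.ext
    rw [hxy]
    rfl

theorem tensorProduct_le_mul {ι : Type} [Fintype ι] [DecidableEq ι] {a b : ℕ}
    (e : ι ≃ Fin a × Fin b) (P : GL ι F) (K : GL (Fin a × Fin b) F)
    (hK : K ∈ kroneckerSubgroup a b F) :
    tensorProductSubgroup a b e P ≤ tensorProductSubgroup a b e (P * glReindex e.symm K) := by
  rintro _ ⟨_, ⟨k, hk, rfl⟩, rfl⟩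
  refine ⟨_, ⟨K⁻¹ * k * K, mul_mem (mul_mem (inv_mem hK) hk) hK, rfl⟩, ?_⟩
  simp [MulAut.conj_apply, mul_assoc]

theorem reindex_mulVec_comp' {ι κ : Type} [Fintype ι] [DecidableEq ι] [Fintype κ] [DecidableEq κ]
    (e : ι ≃ κ) (M : Matrix κ κ F) (x : κ → F) :
    Matrix.reindex e.symm e.symm M *ᵥ (x ∘ e) = (M *ᵥ x) ∘ e := by
  ext i
  simp only [Matrix.mulVec, dotProduct, Matrix.reindex_apply, Matrix.submatrix_apply,
    Function.comp_apply, Equiv.symm_symm]
  exact Fintype.sum_equiv e _ _ (fun _ => rfl)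

theorem uform_eq_gform (hF : Fintype.card F = q ^ 2) {m : ℕ}
    {f₁ : (Fin m → F) → (Fin m → F) → F} (h₁ : IsUnitaryFormPow q f₁) (u v : Fin m → F) :
    f₁ u v = gform (frobQ hF) (gramMatrix f₁) u v :=
  eq_gform (frobQ hF) f₁ h₁.add_left h₁.smul_left
    (Cfsg.Agent.Lib.Helper70.AschU.uform_add_right hF h₁)
    (fun c v x => Cfsg.Agent.Lib.Helper70.AschU.uform_smul_right h₁ c v x) u v

theorem gram_of_orthonormal (hF : Fintype.card F = q ^ 2) {m : ℕ}
    {f₁ : (Fin m → F) → (Fin m → F) → F} (h₁ : IsUnitaryFormPow q f₁) (C : Matrix (Fin m) (Fin m) F)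
    (hC : ∀ x y, f₁ (C *ᵥ x) (C *ᵥ y) = hermForm m F q x y) :
    Cᵀ * gramMatrix f₁ * C.map (frobQ hF) = 1 := by
  apply gform_ext (frobQ hF)
  intro u v
  rw [← gform_mulVec, ← uform_eq_gform hF h₁, hC, hermForm_eq_gform hF]

theorem gramMatrix_hermForm (hF : Fintype.card F = q ^ 2) {m : ℕ} :
    gramMatrix (hermForm m F q) = 1 := by
  have : hermForm m F q = gform (frobQ hF) 1 := by
    ext u v
    exact hermForm_eq_gform hF u v
  rw [this, gramMatrix_gform]

/-- U7s : the square case -/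
theorem square_form (hF : Fintype.card F = q ^ 2) {m : ℕ} (e : Fin n ≃ Fin m × Fin m)
    (P : GL (Fin n) F) (f₁ f₂ : (Fin m → F) → (Fin m → F) → F)
    (h₁ : IsUnitaryFormPow q f₁) (h₂ : IsUnitaryFormPow q f₂)
    (hT : IsTensorFormStructure (fun x : F => x ^ q) (hermForm n F q) f₁ f₂ e P) :
    ∃ P' : GL (Fin n) F,
      tensorProductSubgroup m m e P ≤
        tensorWreathSubgroup m 2 (e.trans (finTwoArrowEquiv (Fin m)).symm) P' ∧
      IsTensorPowerFormStructure (fun x : F => x ^ q) (hermForm n F q) (hermForm m F q)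
        (e.trans (finTwoArrowEquiv (Fin m)).symm) P' := by
  classical
  obtain ⟨C₁, hC₁⟩ := Cfsg.Agent.Lib.Helper70.AschU.exists_orthonormal hF f₁ h₁
  obtain ⟨C₂, hC₂⟩ := Cfsg.Agent.Lib.Helper70.AschU.exists_orthonormal hF f₂ h₂
  set σ := frobQ hF with hσ
  refine ⟨P * glReindex e.symm (kronGL C₁ C₂), ?_, ?_⟩
  · exact (tensorProduct_le_mul e P (kronGL C₁ C₂) ⟨C₁, C₂, rfl⟩).trans (tensor_le_wreath' e _)
  · obtain ⟨c, hc, hT⟩ := hT
    refine ⟨c, hc, ?_⟩
    intro x y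
    set φ := finTwoArrowEquiv (Fin m) with hφ
    set K : Matrix (Fin m × Fin m) (Fin m × Fin m) F :=
      (C₁ : Matrix (Fin m) (Fin m) F) ⊗ₖ (C₂ : Matrix (Fin m) (Fin m) F) with hK
    have hP' : ∀ z : (Fin 2 → Fin m) → F,
        ((P * glReindex e.symm (kronGL C₁ C₂) : GL (Fin n) F) : Matrix (Fin n) (Fin n) F) *ᵥ
          (z ∘ (e.trans φ.symm)) =
        (P : Matrix (Fin n) (Fin n) F) *ᵥ ((K *ᵥ (z ∘ φ.symm)) ∘ e) := by
      intro z
      rw [Units.val_mul, ← Matrix.mulVec_mulVec, ← reindex_mulVec_comp']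
      rfl
    rw [hP', hP', hT, formOfGram_eq_gform hF, gform_mulVec]
    have hKK : Kᵀ * (gramMatrix f₁ ⊗ₖ gramMatrix f₂) * K.map σ = 1 := by
      have e1 : Kᵀ = (C₁ : Matrix (Fin m) (Fin m) F)ᵀ ⊗ₖ (C₂ : Matrix (Fin m) (Fin m) F)ᵀ := by
        ext ⟨i, k⟩ ⟨j, l⟩
        rfl
      have e2 : K.map σ = (C₁ : Matrix (Fin m) (Fin m) F).map σ ⊗ₖ
          (C₂ : Matrix (Fin m) (Fin m) F).map σ := by
        ext ⟨i, k⟩ ⟨j, l⟩
        simp [hK, Matrix.kroneckerMap_apply]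
      rw [e1, e2, ← Matrix.mul_kronecker_mul, ← Matrix.mul_kronecker_mul,
        gram_of_orthonormal hF h₁ _ hC₁, gram_of_orthonormal hF h₂ _ hC₂,
        Matrix.one_kronecker_one]
    rw [hKK, gramMatrix_hermForm hF]
    congr 1
    simp only [gform, Matrix.one_mulVec, dotProduct, Function.comp_apply, Fin.prod_univ_two]
    rw [← Equiv.sum_comp φ]
    refine Finset.sum_congr rfl fun a _ => ?_
    rw [Equiv.symm_apply_apply]
    rw [Finset.sum_eq_single a]
    · simp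
    · intro b _ hb
      have : ¬ (a 0 = b 0 ∧ a 1 = b 1) := by
        rintro ⟨h0, h1⟩
        apply hb
        ext i
        fin_cases i
        · exact congrArg _ h0.symm
        · exact congrArg _ h1.symm
      by_cases h0 : a 0 = b 0
      · have h1 : a 1 ≠ b 1 := fun h1 => this ⟨h0, h1⟩
        simp [Matrix.one_apply, h1]
      · simp [Matrix.one_apply, h0]
    · intro h
      exact absurd (Finset.mem_univ a) h

end Cfsg.Agent.Lib.Helper11.AschU
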